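import Cfsg.Agent.H14.McLMult.SylData

/-! The checks of the certificate at 5 for the McLaughlin group. -/

set_option autoImplicit false
set_option maxRecDepth 100000

namespace Cfsg.Agent.H14.McLMult.Syl

open Cfsg.Agent.H13.SylMult

theorem pc5_ok : pc5.ok cert5 = true := by decide +kernel

theorem rows5_ok : cert5.rowsOk pc5 = true := by decide +kernel

theorem combos5_ok : cert5.combosOk pc5 = true := by decide +kernel

theorem perm5_ok : perm5.ok pc5 cert5 = true := by decide +kernel

end Cfsg.Agent.H14.McLMult.Syl
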