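import Cfsg.Agent.H14.McLMult.SylChecks2
import Cfsg.Agent.H14.McLMult.SylChecks3
import Cfsg.Agent.H14.McLMult.SylChecks5
import Cfsg.Agent.H13.SylMult.Mult
import Cfsg.Agent.H15.Out.McLModel

/-!
The Schur multiplier of the McLaughlin group has order at most three.
-/

set_option autoImplicit false
set_option maxRecDepth 100000

namespace Cfsg.Agent.H14.McLMult.Syl

open Cfsg Equiv Cfsg.Agent.H16 Cfsg.Agent.H36 Cfsg.Agent.H13.SylMult

theorem ctx_eq : ctx.n = H15.Out.McL.ctx.n ∧ ctx.w = H15.Out.McL.ctx.w ∧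
    ctx.gens = H15.Out.McL.ctx.gens := by decide +kernel

/-- The generators. -/
noncomputable def σG : Fin ctx.gens.length → Perm (Fin ctx.n) := fun c =>
  (Fin.castOrderIso ctx_eq.1).toEquiv.symm.permCongr
    (H15.Out.McL.gen (Fin.cast (congrArg List.length ctx_eq.2.2) c))

theorem σG_rep (c : Fin ctx.gens.length) : ctx.Rep (σG c) (getN ctx.gens c) := fun x => by
  have h := (H15.Out.McL.gen_spec (Fin.cast (congrArg List.length ctx_eq.2.2) c)).2 (Fin.cast ctx_eq.1 x)
  show ((H15.Out.McL.gen (Fin.cast (congrArg List.length ctx_eq.2.2) c) (Fin.cast ctx_eq.1 x) :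
    Fin H15.Out.McL.ctx.n) : ℕ) = _
  rw [h]
  simp only [AutEngine.Ctx.ap, Fin.val_cast]
  exact (congrArg₂ (fun w l => pim w (getN l c) x) ctx_eq.2.1 ctx_eq.2.2).symm

/-- The two models agree. -/
noncomputable def toModel : Subgroup.closure (Set.range σG) ≃* AutEngine.grpOf H15.Out.McL.gen :=
  ((Fin.castOrderIso ctx_eq.1).toEquiv.permCongrHom.subgroupMap (Subgroup.closure (Set.range σG))).trans
    (MulEquiv.subgroupCongr (by
      rw [MonoidHom.map_closure, ← Set.range_comp]
      show Subgroup.closure _ = AutEngine.grpOf H15.Out.McL.gen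
      unfold AutEngine.grpOf
      congr 1))

theorem card_closure : Nat.card (Subgroup.closure (Set.range σG)) = 898128000 := by
  rw [Nat.card_congr toModel.toEquiv, H15.Out.McL.card_grp]

theorem card_ker_dvd_three (Δ : Type) [Group Δ] [Finite Δ]
    (τ : Δ →* Subgroup.closure (Set.range σG)) (hτ : Cfsg.IsStemExtension τ) : Nat.card τ.ker ∣ 3 := by
  obtain ⟨E2, F2, h2⟩ := groupFacts (R := perm2) (D := pc2) (C := cert2) σG σG_rep perm2_ok
    (by decide +kernel) (show Nat.Prime 2 by norm_num) pc2_ok rows2_ok (by decide +kernel)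
  obtain ⟨E3, F3, h3⟩ := groupFacts (R := perm3) (D := pc3) (C := cert3) σG σG_rep perm3_ok
    (by decide +kernel) (show Nat.Prime 3 by norm_num) pc3_ok rows3_ok (by decide +kernel)
  obtain ⟨E5, F5, h5⟩ := groupFacts (R := perm5) (D := pc5) (C := cert5) σG σG_rep perm5_ok
    (by decide +kernel) (show Nat.Prime 5 by norm_num) pc5_ok rows5_ok (by decide +kernel)
  have b2 := factorization_ker_le hτ (show Nat.Prime 2 by norm_num) pc2_ok rows2_ok combos2_ok h2
    (factorization_eq (a := 7) (b := 7016625) (by norm_num : Nat.Prime 2) (by rw [card_closure]; rfl)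
      (show ¬ (2 : ℕ) ∣ 7016625 by norm_num))
  have b3 := factorization_ker_le hτ (show Nat.Prime 3 by norm_num) pc3_ok rows3_ok combos3_ok h3
    (factorization_eq (a := 6) (b := 1232000) (by norm_num : Nat.Prime 3) (by rw [card_closure]; rfl)
      (show ¬ (3 : ℕ) ∣ 1232000 by norm_num))
  have b5 := factorization_ker_le hτ (show Nat.Prime 5 by norm_num) pc5_ok rows5_ok combos5_ok h5
    (factorization_eq (a := 3) (b := 7185024) (by norm_num : Nat.Prime 5) (by rw [card_closure]; rfl)
      (show ¬ (5 : ℕ) ∣ 7185024 by norm_num))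
  refine card_ker_dvd hτ (by norm_num) [2, 3, 5] (fun p hp => ?_) (fun p hp hn => ?_)
  · simp only [List.mem_cons, List.not_mem_nil, or_false] at hp
    rcases hp with rfl | rfl | rfl
    · exact b2.trans (Nat.zero_le _)
    · rw [Nat.prime_three.factorization_self]; exact b3
    · exact b5.trans (Nat.zero_le _)
  · rw [card_closure]
    simp only [List.mem_cons, List.not_mem_nil, or_false, not_or] at hn
    by_contra hlt
    have hd : p ^ 2 ∣ 2 ^ 7 * (3 ^ 6 * (5 ^ 3 * (7 * 11))) := by
      refine (pow_dvd_pow p (by omega : 2 ≤ (898128000 : ℕ).factorization p)).trans ?_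
      norm_num
      exact Nat.ordProj_dvd 898128000 p
    have cop : ∀ q k, q.Prime → p ≠ q → Nat.Coprime (p ^ 2) (q ^ k) := fun q k hq hne =>
      Nat.Coprime.pow 2 k ((Nat.coprime_primes hp hq).2 hne)
    have h3 := (cop 5 3 (by norm_num) hn.2.2).dvd_of_dvd_mul_left
      ((cop 3 6 Nat.prime_three hn.2.1).dvd_of_dvd_mul_left
        ((cop 2 7 Nat.prime_two hn.1).dvd_of_dvd_mul_left hd))
    rcases (Nat.Prime.dvd_mul hp).1 ((dvd_pow_self p two_ne_zero).trans h3) with h | h
    · rw [(Nat.prime_dvd_prime_iff_eq hp (by norm_num)).1 h] at h3; norm_num at h3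
    · rw [(Nat.prime_dvd_prime_iff_eq hp (by norm_num)).1 h] at h3; norm_num at h3

end Cfsg.Agent.H14.McLMult.Syl
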