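import Cfsg.Agent.H14.McLMult.GraphData

/-! Kernel checks of the second half of the coset graph. -/

set_option autoImplicit false
set_option maxRecDepth 100000

namespace Cfsg.Agent.H14.McLMult

open Cfsg.Agent.H12.CExt

theorem chunk_2 : chunkOK graph 2916 1458 = true := by decide +kernel

theorem chunk_3 : chunkOK graph 4374 1458 = true := by decide +kernel

end Cfsg.Agent.H14.McLMult
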