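import Cfsg.Agent.H14.McLMult.GraphData
import Cfsg.Agent.H14.PLocal.CoverCheck

/-! Kernel checks of the reduced labels. -/

set_option autoImplicit false
set_option maxRecDepth 100000

namespace Cfsg.Agent.H14.McLMult

open Cfsg.Agent.H14.PLocal

theorem cover_0 : coverFast graph 3 labE labS chi 0 1458 = true := by decide +kernel

theorem cover_1 : coverFast graph 3 labE labS chi 1458 1458 = true := by decide +kernel

theorem cover_2 : coverFast graph 3 labE labS chi 2916 1458 = true := by decide +kernel

theorem cover_3 : coverFast graph 3 labE labS chi 4374 1458 = true := by decide +kernel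

end Cfsg.Agent.H14.McLMult
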