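import Cfsg.Agent.H14.McLMult.Sub
import Cfsg.Agent.H14.PLocal.Transfer

/-!
The Schur multiplier of the McLaughlin group is cyclic of order three.
-/

set_option autoImplicit false
set_option maxRecDepth 100000

namespace Cfsg.Agent.H14.McLMult

open Equiv Cfsg.Agent.H16 Cfsg.Agent.H36 Cfsg.Agent.H36.AutEngine Cfsg.Agent.H12.CExt
  Cfsg.Agent.H14.PLocal
open scoped commutatorElement IsMulCommutative

noncomputable section

/-- The central extension of the stabiliser. -/
abbrev proj3 : CoverGroup.grp input →* Grp := CoverGroup.proj input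

theorem range_eq : proj3.range = stabPair := (CoverGroup.range_proj input).trans stabPair_eq

/-- The first element of the pair. -/
def gX : Grp := elem idX

/-- The second element of the pair. -/
def gY : Grp := elem idY

/-- The transporters. -/
def gT (i : Fin 20) : Grp := elem (getN idT i)

theorem gX_rep : ctx.Rep gX.1 (ctx.el idX) := elem_rep (id_lt (by simp))

theorem gY_rep : ctx.Rep gY.1 (ctx.el idY) := elem_rep (id_lt (by simp))

theorem len_T : idT.length = 20 := rfl

theorem gT_rep (i : Fin 20) : ctx.Rep (gT i).1 (ctx.el (getN idT i)) :=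
  elem_rep (id_lt (List.mem_append_left _ (List.mem_append_right _
    (getN_mem _ (by rw [len_T]; exact i.2)))))

theorem pair_comm : gX * gY = gY * gX := Subtype.ext (Equiv.ext fun p => Fin.ext (by
  simp only [Subgroup.coe_mul, Perm.mul_apply]
  rw [gX_rep, gY_rep, gY_rep, gX_rep]
  exact Ctx.pts_spec pair_commute p))

theorem pair_cube : gX ^ 3 = 1 ∧ gY ^ 3 = 1 := by
  have key : ∀ (g : Grp) (P : ℕ), ctx.Rep g.1 P →
      (∀ p : Fin ctx.n, iterPt (ctx.ap P) 3 p = p) → g ^ 3 = 1 := by
    intro g P hg h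
    refine Subtype.ext (Equiv.ext fun p => Fin.ext ?_)
    rw [SubmonoidClass.coe_pow, ← Ctx.iterPt_spec (fun x => (hg x).symm) 3 p, h p]
    rfl
  have h := fun p : Fin ctx.n => allFrom_spec pair_order p (Nat.zero_le _) (by omega)
  simp only [Bool.and_eq_true] at h
  exact ⟨key _ _ gX_rep fun p => Nat.eq_of_beq_eq_true (h p).1,
    key _ _ gY_rep fun p => Nat.eq_of_beq_eq_true (h p).2⟩

theorem words_lt (i : Fin 20) :
    (∀ c ∈ wordsX.getD i [], c < 2) ∧ (∀ c ∈ wordsY.getD i [], c < 2) := by
  have h := List.all_eq_true.mp conj_ok i.1 (List.mem_range.mpr i.2)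
  simp only [Bool.and_eq_true, List.all_eq_true, List.mem_append, Nat.blt_eq] at h
  exact ⟨fun c hc => h.1 c (Or.inl hc), fun c hc => h.1 c (Or.inr hc)⟩

theorem conj_eq (i : Fin 20) : gX * gT i = gT i * ev gA gB (wordsX.getD i []) ∧
    gY * gT i = gT i * ev gA gB (wordsY.getD i []) := by
  have h := List.all_eq_true.mp conj_ok i.1 (List.mem_range.mpr i.2)
  simp only [Bool.and_eq_true] at h
  have h' := fun p : Fin ctx.n => allFrom_spec h.2 p (Nat.zero_le _) (by omega)
  simp only [Bool.and_eq_true] at h'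
  constructor <;> refine Subtype.ext (Equiv.ext fun p => Fin.ext ?_) <;>
    simp only [Subgroup.coe_mul, Perm.mul_apply, coe_ev]
  · rw [gX_rep, gT_rep, gT_rep, PermTests.apWord_spec gA_rep gB_rep]
    exact Nat.eq_of_beq_eq_true (h' p).1
  · rw [gY_rep, gT_rep, gT_rep, PermTests.apWord_spec gA_rep gB_rep]
    exact Nat.eq_of_beq_eq_true (h' p).2

/-- The image of the first two points under a transporter. -/
theorem gT_pair (i : Fin 20) : (((gT i).1 pt0 : Fin ctx.n) : ℕ) = (pairImgs.getD i (0, 0)).1 ∧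
    (((gT i).1 pt1 : Fin ctx.n) : ℕ) = (pairImgs.getD i (0, 0)).2 := by
  have h := List.all_eq_true.mp transporters_ok i.1 (List.mem_range.mpr i.2)
  simp only [Bool.and_eq_true] at h
  exact ⟨(gT_rep i pt0).trans (Nat.eq_of_beq_eq_true h.1),
    (gT_rep i pt1).trans (Nat.eq_of_beq_eq_true h.2)⟩

theorem coset_inj : Function.Injective fun i => (gT i : Grp ⧸ proj3.range) := by
  intro i j h
  have h' := QuotientGroup.eq.mp h
  rw [range_eq, mem_stabPair] at h'
  simp only [Subgroup.coe_mul, InvMemClass.coe_inv, Perm.mul_apply, Perm.inv_eq_iff_eq] at h'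
  have hn := pairs_ok
  simp only [Bool.and_eq_true, decide_eq_true_eq] at hn
  have hl := Nat.eq_of_beq_eq_true hn.1.2
  have e : pairImgs.getD i (0, 0) = pairImgs.getD j (0, 0) := Prod.ext
    (by rw [← (gT_pair i).1, ← (gT_pair j).1, h'.1])
    (by rw [← (gT_pair i).2, ← (gT_pair j).2, h'.2])
  rw [List.getD_eq_getElem _ _ (hl.symm ▸ i.2), List.getD_eq_getElem _ _ (hl.symm ▸ j.2)] at e
  exact Fin.ext ((hn.1.1.2.getElem_inj_iff).mp e)

theorem coset_fixed (v : Grp ⧸ proj3.range) :
    (gX • v = v ∧ gY • v = v) ↔ ∃ i, (gT i : Grp ⧸ proj3.range) = v := by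
  constructor
  · rintro ⟨hx, hy⟩
    obtain ⟨g, rfl⟩ := QuotientGroup.mk_surjective v
    have key : ∀ z : Grp, z • (g : Grp ⧸ proj3.range) = g → ∀ p : Fin ctx.n, (p : ℕ) < 2 →
        z.1 (g.1 p) = g.1 p := by
      intro z hz p hp
      have h := QuotientGroup.eq.mp hz.symm
      rw [range_eq] at h
      have := h p hp
      simp only [Subgroup.coe_mul, InvMemClass.coe_inv, Perm.mul_apply, Perm.inv_eq_iff_eq] at this
      exact this
    have hF : ∀ p : Fin ctx.n, (p : ℕ) < 2 → ((g.1 p : Fin ctx.n) : ℕ) ∈ fixPts := by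
      intro p hp
      have h := allFrom_spec fix_ok (g.1 p : Fin ctx.n) (Nat.zero_le _) (by omega)
      rw [show ctx.ap (ctx.el idX) (g.1 p : Fin ctx.n) = (g.1 p : Fin ctx.n) from
          (gX_rep _).symm.trans (congrArg Fin.val (key gX hx p hp)),
        show ctx.ap (ctx.el idY) (g.1 p : Fin ctx.n) = (g.1 p : Fin ctx.n) from
          (gY_rep _).symm.trans (congrArg Fin.val (key gY hy p hp))] at h
      simpa using h
    have hne : Nat.beq ((g.1 pt0 : Fin ctx.n) : ℕ) (g.1 pt1 : Fin ctx.n) = false := by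
      refine Bool.eq_false_iff.mpr fun e => ?_
      have e' := g.1.injective (Fin.ext (Nat.eq_of_beq_eq_true e))
      exact absurd (congrArg Fin.val e') (by decide)
    have hn := pairs_ok
    simp only [Bool.and_eq_true, List.all_eq_true] at hn
    have := hn.1.1.1 _ (hF pt0 (by decide)) _ (hF pt1 (by decide))
    rw [hne, Bool.false_or, List.any_eq_true] at this
    obtain ⟨i, hi, he⟩ := this
    rw [List.mem_range] at hi
    rw [beq_iff_eq] at he
    refine ⟨⟨i, hi⟩, QuotientGroup.eq.mpr ?_⟩
    rw [range_eq, mem_stabPair]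
    simp only [Subgroup.coe_mul, InvMemClass.coe_inv, Perm.mul_apply, Perm.inv_eq_iff_eq]
    exact ⟨Fin.ext (by rw [(gT_pair ⟨i, hi⟩).1, he]), Fin.ext (by rw [(gT_pair ⟨i, hi⟩).2, he])⟩
  · rintro ⟨i, rfl⟩
    have hmem : ∀ w : List ℕ, (∀ c ∈ w, c < 2) → ev gA gB w ∈ proj3.range := fun w hw =>
      ⟨ev (CoverGroup.ka input) (CoverGroup.kb input) w, CoverGroup.proj_ev input hw⟩
    have key : ∀ (z h : Grp), z * gT i = gT i * h → h ∈ proj3.range →
        z • (gT i : Grp ⧸ proj3.range) = gT i := by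
      intro z h e hh
      refine (QuotientGroup.eq.mpr ?_).symm
      show (gT i)⁻¹ * (z * gT i) ∈ _
      rwa [e, inv_mul_cancel_left]
    exact ⟨key _ _ (conj_eq i).1 (hmem _ (words_lt i).1), key _ _ (conj_eq i).2 (hmem _ (words_lt i).2)⟩

/-- The value at a transporter. -/
def valAt (i : ℕ) : ZMod 3 :=
  (walkA graph (natLab graph 3 labE labS) 0 (wordsX.getD i [] ++ wordsY.getD i [])).2.2 -
    (walkA graph (natLab graph 3 labE labS) 0 (wordsY.getD i [] ++ wordsX.getD i [])).2.2

theorem total_ne : ((List.range 20).map valAt).sum ≠ 0 := by decide +kernel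

theorem exists_stem3 : ∃ (E : Type) (_ : Group E) (_ : Finite E) (σ : E →* Grp),
    Cfsg.IsStemExtension σ ∧ IsCyclic σ.ker ∧ Nat.card σ.ker = 3 := by
  classical
  have : Fact (Nat.Prime 3) := ⟨Nat.prime_three⟩
  have : Fintype (Transfer.Cos proj3) := Fintype.ofFinite _
  let X : Fin 20 → CoverGroup.grp input := fun i =>
    ev (CoverGroup.ka input) (CoverGroup.kb input) (wordsX.getD i [])
  let Y : Fin 20 → CoverGroup.grp input := fun i =>
    ev (CoverGroup.ka input) (CoverGroup.kb input) (wordsY.getD i [])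
  have hcen := CoverGroup.ker_central input
  let vi : Multiplicative (ZMod 3) →* Transfer.Val proj3 := MonoidHom.mk'
    (fun a => Transfer.val hcen (CoverGroup.tr input a.toAdd)
      ((CoverGroup.mem_ker_iff input).mpr ⟨_, rfl⟩))
    fun a b => Transfer.val_ext (Subtype.ext (trans_add _ _))
  have hvi : Function.Injective vi := fun a b h => by
    have := congrArg (fun z : Transfer.Val proj3 => ((z : Subgroup.center (CoverGroup.grp input)) :
      CoverGroup.grp input)) h
    exact CoverGroup.tr_injective input this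
  refine Transfer.exists_stem hcen ((CoverGroup.card_ker input).trans (Nat.card_zmod 3)) pair_comm
    pair_cube.1 pair_cube.2 gT coset_inj coset_fixed X Y (fun i => ?_) (fun i => ?_)
    (fun i => vi (Multiplicative.ofAdd (valAt i))) (fun i => ?_) ?_
  · rw [CoverGroup.proj_ev input (words_lt i).1, mul_assoc, (conj_eq i).1, inv_mul_cancel_left]
  · rw [CoverGroup.proj_ev input (words_lt i).2, mul_assoc, (conj_eq i).2, inv_mul_cancel_left]
  · obtain ⟨hx, hy⟩ := words_lt i
    have hcm : ev gA gB (wordsX.getD i [] ++ wordsY.getD i []) =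
        ev gA gB (wordsY.getD i [] ++ wordsX.getD i []) := by
      rw [ev_append, ev_append]
      have e1 : ev gA gB (wordsX.getD i []) = (gT i)⁻¹ * gX * gT i := by
        rw [mul_assoc, (conj_eq i).1, inv_mul_cancel_left]
      have e2 : ev gA gB (wordsY.getD i []) = (gT i)⁻¹ * gY * gT i := by
        rw [mul_assoc, (conj_eq i).2, inv_mul_cancel_left]
      rw [e1, e2]
      calc (gT i)⁻¹ * gX * gT i * ((gT i)⁻¹ * gY * gT i) = (gT i)⁻¹ * (gX * gY) * gT i := by group
        _ = (gT i)⁻¹ * (gY * gX) * gT i := by rw [pair_comm]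
        _ = _ := by group
    show CoverGroup.tr input (valAt i) = ⁅X i, Y i⁆
    rw [valAt, ← CoverGroup.ev_div input (fun c hc => (List.mem_append.mp hc).elim (hx c) (hy c))
      (fun c hc => (List.mem_append.mp hc).elim (hy c) (hx c)) hcm, commutatorElement_def,
      ev_append, ev_append]
    simp only [X, Y]
    group
  · rw [← map_prod, ← ofAdd_sum]
    intro h
    refine total_ne ?_
    have h' := hvi (h.trans (map_one vi).symm)
    rw [ofAdd_eq_one] at h'
    rw [← h', Finset.sum_fin_eq_sum_range]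
    rw [← List.sum_toFinset _ List.nodup_range, List.toFinset_range]
    refine Finset.sum_congr rfl fun j hj => ?_
    rw [dif_pos (Finset.mem_range.mp hj)]

theorem hasMultiplier : Cfsg.HasCyclicSchurMultiplier ↥Cfsg.Spor.McL 3 := by
  obtain ⟨e⟩ := H15.Out.McL.nonempty_equiv_G0
  let E : ↥Spor.McL ≃* Grp := (e.trans H15.Out.McL.equivG0).trans Syl.toModel.symm
  exact H13.SylMult.hasCyclic_of_bound E (fun Δ _ _ τ hτ => Syl.card_ker_dvd_three Δ τ hτ)
    (by norm_num) exists_stem3

end

end Cfsg.Agent.H14.McLMult
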