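import Cfsg.Agent.H14.McLMult.GraphData
import Cfsg.Agent.H14.McLMult.PairData
import Cfsg.Agent.H14.PLocal.PermTests

/-! Kernel checks on the permutations. -/

set_option autoImplicit false
set_option maxRecDepth 100000

namespace Cfsg.Agent.H14.McLMult

open Cfsg.Agent.H16 Cfsg.Agent.H36 Cfsg.Agent.H36.AutEngine Cfsg.Agent.H12.CExt Cfsg.Agent.H14.PLocal

theorem slp_ok : allFrom ctx.slpOk ctx.ns 0 = true := by decide +kernel

theorem ids_ok : ([idA, idB, idX, idY] ++ idT ++ idS).all (fun k => Nat.blt k ctx.ns) = true := by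
  decide +kernel

theorem rels_ok : PermTests.relsOK ctx graph (ctx.el idA) (ctx.el idB) = true := by decide +kernel

theorem inv_ok : PermTests.invImgOK ctx graph (ctx.el idA) (ctx.el idB) baseList invImg 0 5832 =
    true := by decide +kernel

theorem sep_ok : PermTests.sepOK ctx graph (ctx.el idB) baseList invImg 0 5832 = true := by
  decide +kernel

theorem base_ok : baseList.all (fun b => Nat.blt b ctx.n) = true := by decide +kernel

theorem tree0_ok : PermTests.treeOK ctx 0 tree0 [0, 1] = true := by decide +kernel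

theorem tree1_ok : PermTests.treeOK ctx 1 tree1 idS = true := by decide +kernel

theorem tree0_nodup : Nat.beq tree0.length 275 && decide ((tree0.map (·.1)).Nodup) = true := by
  decide +kernel

theorem tree1_nodup : Nat.beq tree1.length 112 && decide ((tree1.map (·.1)).Nodup) = true := by
  decide +kernel

theorem stab_ok : (idS.all fun k => Nat.beq (ctx.ap (ctx.el k) 0) 0) = true := by decide +kernel

theorem sub_fix : ([idA, idB].all fun k => Nat.beq (ctx.ap (ctx.el k) 0) 0 &&
    Nat.beq (ctx.ap (ctx.el k) 1) 1) = true := by decide +kernel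

theorem pair_commute : (ctx.allPts fun p => Nat.beq (ctx.ap (ctx.el idX) (ctx.ap (ctx.el idY) p))
    (ctx.ap (ctx.el idY) (ctx.ap (ctx.el idX) p))) = true := by decide +kernel

theorem pair_order : (ctx.allPts fun p => Nat.beq (iterPt (ctx.ap (ctx.el idX)) 3 p) p &&
    Nat.beq (iterPt (ctx.ap (ctx.el idY)) 3 p) p) = true := by decide +kernel

theorem fix_ok : (ctx.allPts fun p =>
    !(Nat.beq (ctx.ap (ctx.el idX) p) p && Nat.beq (ctx.ap (ctx.el idY) p) p) ||
      fixPts.contains p) = true := by decide +kernel

theorem transporters_ok : ((List.range 20).all fun i =>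
    Nat.beq (ctx.ap (ctx.el (getN idT i)) 0) (pairImgs.getD i (0, 0)).1 &&
    Nat.beq (ctx.ap (ctx.el (getN idT i)) 1) (pairImgs.getD i (0, 0)).2) = true := by decide +kernel

theorem pairs_ok : (fixPts.all fun a => fixPts.all fun b =>
      Nat.beq a b || (List.range 20).any fun i => pairImgs.getD i (0, 0) == (a, b)) &&
    decide (pairImgs.Nodup) && Nat.beq pairImgs.length 20 && Nat.beq idT.length 20 = true := by
  decide +kernel

theorem conj_ok : ((List.range 20).all fun i =>
    ((wordsX.getD i [] ++ wordsY.getD i []).all fun c => Nat.blt c 2) &&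
    ctx.allPts fun p =>
      Nat.beq (ctx.ap (ctx.el idX) (ctx.ap (ctx.el (getN idT i)) p))
        (ctx.ap (ctx.el (getN idT i))
          (PermTests.apWord ctx (ctx.el idA) (ctx.el idB) (wordsX.getD i []) p)) &&
      Nat.beq (ctx.ap (ctx.el idY) (ctx.ap (ctx.el (getN idT i)) p))
        (ctx.ap (ctx.el (getN idT i))
          (PermTests.apWord ctx (ctx.el idA) (ctx.el idB) (wordsY.getD i []) p))) = true := by
  decide +kernel

end Cfsg.Agent.H14.McLMult
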