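import Cfsg.Agent.H14.McLMult.GraphChecksA
import Cfsg.Agent.H14.McLMult.GraphChecksB
import Cfsg.Agent.H14.McLMult.LabelChecks
import Cfsg.Agent.H14.McLMult.PermChecks
import Cfsg.Agent.H14.McLMult.Bound
import Cfsg.Agent.H14.PLocal.CoverGroup
import Cfsg.Agent.H14.PLocal.Order

/-!
The stabiliser of an adjacent pair in the McLaughlin group and its central extension by three.
-/

set_option autoImplicit false
set_option maxRecDepth 100000

namespace Cfsg.Agent.H14.McLMult

open Equiv Cfsg.Agent.H16 Cfsg.Agent.H36 Cfsg.Agent.H36.AutEngine Cfsg.Agent.H12.CExt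
  Cfsg.Agent.H14.PLocal

noncomputable section

/-- The group. -/
abbrev Grp : Subgroup (Perm (Fin ctx.n)) := Subgroup.closure (Set.range Syl.σG)

theorem card_Grp : Nat.card Grp = 898128000 := Syl.card_closure

theorem exists_el {k : ℕ} (hk : k < ctx.ns) : ∃ g : Grp, ctx.Rep g.1 (ctx.el k) := by
  obtain ⟨g, hg, hr⟩ := Ctx.el_mem (D := ctx) Syl.σG Syl.σG_rep
    (fun k hk => allFrom_spec slp_ok k (Nat.zero_le _) (by omega)) k hk
  exact ⟨⟨g, hg⟩, hr⟩

theorem id_lt {k : ℕ} (h : k ∈ [idA, idB, idX, idY] ++ idT ++ idS) : k < ctx.ns :=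
  Nat.le_of_ble_eq_true (List.all_eq_true.mp ids_ok k h)

/-- An element of the program. -/
def elem (k : ℕ) : Grp := if h : k < ctx.ns then (exists_el h).choose else 1

theorem elem_rep {k : ℕ} (h : k < ctx.ns) : ctx.Rep (elem k).1 (ctx.el k) := by
  rw [elem, dif_pos h]
  exact (exists_el h).choose_spec

/-- The first generator. -/
def gA : Grp := elem idA

/-- The second generator. -/
def gB : Grp := elem idB

theorem gA_rep : ctx.Rep gA.1 (ctx.el idA) := elem_rep (id_lt (by simp))

theorem gB_rep : ctx.Rep gB.1 (ctx.el idB) := elem_rep (id_lt (by simp))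

instance instNeZeroNb : NeZero graph.nb := ⟨by decide +kernel⟩

theorem all_ok : AllOK graph := by
  refine allOK_of_chunks (lens := [(0, 1458), (1458, 1458), (2916, 1458), (4374, 1458)]) ?_
    (by decide +kernel)
  intro p hp
  simp only [List.mem_cons, List.not_mem_nil, or_false] at hp
  rcases hp with rfl | rfl | rfl | rfl
  exacts [chunk_0, chunk_1, chunk_2, chunk_3]

theorem graph_n : graph.n = 5832 := rfl

theorem cover_ok : CoverOK graph (natLab graph 3 labE labS) (fun j => (chi j : ZMod 3)) := by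
  refine coverOK_of_fast graph 3 labE labS chi (fun v hv => ?_) all_ok (by decide +kernel)
  rw [graph_n] at hv
  refine PermTests.allFrom_intro fun i h1 h2 => ?_
  obtain rfl : i = v := by omega
  by_cases a1 : i < 1458
  · exact allFrom_spec cover_0 i (Nat.zero_le _) (by omega)
  by_cases a2 : i < 2916
  · exact allFrom_spec cover_1 i (by omega) (by omega)
  by_cases a3 : i < 4374
  · exact allFrom_spec cover_2 i (by omega) (by omega)
  · exact allFrom_spec cover_3 i (by omega) (by omega)

theorem coe_ev (a b : Grp) (w : List ℕ) : ((ev a b w : Grp) : Perm (Fin ctx.n)) = ev a.1 b.1 w :=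
  map_ev a b Grp.subtype w

theorem coe_tval (a b : Grp) : ∀ v : ℕ,
    ((tval graph a b v : Grp) : Perm (Fin ctx.n)) = tval graph a.1 b.1 v := by
  intro v
  induction v using Nat.strong_induction_on with
  | _ v ih =>
    by_cases h : 0 < v ∧ (graph.par v).1 < v
    · rw [tval_of_par _ _ _ h.1 h.2, tval_of_par _ _ _ h.1 h.2, Subgroup.coe_mul, ih _ h.2]
      congr 1
      rw [letter, letter]
      split_ifs <;> rfl
    · rw [tval, dif_neg h]
      conv_rhs => rw [tval, dif_neg h]
      rfl

theorem rels_hold : ∀ r ∈ graph.rels, ev gA gB r = 1 := fun r hr =>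
  Subtype.ext (by rw [coe_ev]; exact PermTests.rel_of_check gA_rep gB_rep rels_ok r hr)

theorem sep : ∀ e < graph.nb, ∀ u < graph.n, gB ^ e * tval graph gA gB u = 1 → e = 0 ∧ u = 0 := by
  intro e he u hu h
  refine PermTests.sep_of_check (a := gA.1) (b := gB.1) gA_rep gB_rep (bs := baseList) (I := invImg)
    (fun i hi => Nat.le_of_ble_eq_true (List.all_eq_true.mp base_ok _ (getN_mem _ hi)))
    (fun v hv => PermTests.allFrom_intro fun i h1 h2 => ?_)
    (fun v hv => PermTests.allFrom_intro fun i h1 h2 => ?_) e he u hu ?_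
  · exact allFrom_spec inv_ok i (Nat.zero_le _) (by rw [graph_n] at hv; omega)
  · exact allFrom_spec sep_ok i (Nat.zero_le _) (by rw [graph_n] at hv; omega)
  · rw [← coe_tval, ← SubmonoidClass.coe_pow, ← Subgroup.coe_mul, h, OneMemClass.coe_one]

theorem span_chi (x : ZMod 3) :
    ∃ j < graph.rels.length, ∃ k : ℕ, x = k • (chi j : ZMod 3) :=
  ⟨4, by decide +kernel, x.val, by
    rw [show chi 4 = 1 from rfl, Nat.cast_one, nsmul_one, ZMod.natCast_zmod_val]⟩

theorem input : CoverGroup.Input graph (natLab graph 3 labE labS) (fun j => (chi j : ZMod 3)) gA gB where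
  cover := cover_ok
  graph := all_ok
  letters := PermTests.letters_of_check rels_ok
  pos := by decide +kernel
  hjb := by decide +kernel
  rel := rels_hold
  chi_jb := by decide +kernel
  dvd := by decide +kernel
  exp := by decide +kernel
  span := span_chi
  sep := sep

theorem close_ok : powersClose graph 0 = true := by decide +kernel

theorem card_sub : Nat.card (Subgroup.closure ({gA, gB} : Set Grp)) = 29160 := by
  have h := card_closure (D := graph) rels_hold all_ok ⟨input.pos, NeZero.pos _⟩ (ja := 0) (ma := 4)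
    (by norm_num) (by decide +kernel) input.hjb.1 sep (CoverGroup.good_base input).pow_b close_ok
  rw [h]
  decide +kernel

/-- The point stabiliser of the first point, then of the second. -/
def stabPair : Subgroup Grp where
  carrier := {g | ∀ p : Fin ctx.n, (p : ℕ) < 2 → g.1 p = p}
  one_mem' := fun _ _ => rfl
  mul_mem' := fun {a b} ha hb p hp => by
    rw [Subgroup.coe_mul, Perm.mul_apply, hb p hp, ha p hp]
  inv_mem' := fun {a} ha p hp => by
    rw [Subgroup.coe_inv, Perm.inv_eq_iff_eq, ha p hp]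

/-- The first two points. -/
def pt0 : Fin ctx.n := ⟨0, by decide +kernel⟩

/-- The second point. -/
def pt1 : Fin ctx.n := ⟨1, by decide +kernel⟩

theorem mem_stabPair {g : Grp} : g ∈ stabPair ↔ g.1 pt0 = pt0 ∧ g.1 pt1 = pt1 := by
  refine ⟨fun h => ⟨h pt0 (by decide), h pt1 (by decide)⟩, fun h p hp => ?_⟩
  rcases (show (p : ℕ) = 0 ∨ (p : ℕ) = 1 by omega) with e | e
  · rw [show p = pt0 from Fin.ext e]; exact h.1
  · rw [show p = pt1 from Fin.ext e]; exact h.2

theorem gens01 : ∀ k < [0, 1].length, ∃ g ∈ Grp, ctx.Rep g (ctx.el (getN [0, 1] k)) := by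
  intro k hk
  obtain ⟨g, hg⟩ := exists_el (k := getN [0, 1] k)
    (Nat.le_of_ble_eq_true (List.all_eq_true.mp
      (show [0, 1].all (fun k => Nat.blt k ctx.ns) = true by decide +kernel) _ (getN_mem _ hk)))
  exact ⟨g.1, g.2, hg⟩

theorem gensS : ∀ k < idS.length, ∃ g ∈ Grp ⊓ MulAction.stabilizer (Perm (Fin ctx.n)) pt0,
    ctx.Rep g (ctx.el (getN idS k)) := by
  intro k hk
  have hm := getN_mem idS hk
  obtain ⟨g, hg⟩ := exists_el (id_lt (List.mem_append_right _ hm))
  refine ⟨g.1, ⟨g.2, Fin.ext ?_⟩, hg⟩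
  exact (hg pt0).trans (Nat.eq_of_beq_eq_true (List.all_eq_true.mp stab_ok _ hm))

theorem tree_inj {T : List (ℕ × ℕ × ℕ)} {n : ℕ}
    (h : (Nat.beq T.length n && decide ((T.map (·.1)).Nodup)) = true) :
    T.length = n ∧ ∀ i < n, ∀ j < n, (T.getD i (0, 0, 0)).1 = (T.getD j (0, 0, 0)).1 → i = j := by
  simp only [Bool.and_eq_true, decide_eq_true_eq] at h
  have hl := Nat.eq_of_beq_eq_true h.1
  refine ⟨hl, fun i hi j hj e => ?_⟩
  rw [List.getD_eq_getElem _ _ (hl ▸ hi), List.getD_eq_getElem _ _ (hl ▸ hj)] at e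
  have := (h.2.getElem_inj_iff (i := i) (j := j) (hi := by simp; omega) (hj := by simp; omega))
  rw [List.getElem_map, List.getElem_map] at this
  exact this.mp e

theorem card_stabPair_le : Nat.card stabPair ≤ 29160 := by
  obtain ⟨l0, i0⟩ := tree_inj tree0_nodup
  obtain ⟨l1, i1⟩ := tree_inj tree1_nodup
  choose u hu hu' using fun i : Fin 275 => PermTests.tree_mem tree0_ok Grp gens01
    (show 0 < ctx.n by decide +kernel) i.1 (l0.symm ▸ i.2)
  choose s hs hs' using fun i : Fin 112 => PermTests.tree_mem tree1_ok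
    (Grp ⊓ MulAction.stabilizer (Perm (Fin ctx.n)) pt0) gensS
    (show 1 < ctx.n by decide +kernel) i.1 (l1.symm ▸ i.2)
  let f : Fin 275 × Fin 112 → Grp ⧸ stabPair := fun q =>
    ((⟨u q.1 * s q.2, mul_mem (hu q.1) (hs q.2).1⟩ : Grp) : Grp ⧸ stabPair)
  have hf : Function.Injective f := by
    rintro ⟨i, j⟩ ⟨i', j'⟩ h
    obtain ⟨h0, h1⟩ := mem_stabPair.mp (QuotientGroup.eq.mp h)
    simp only [Subgroup.coe_mul, InvMemClass.coe_inv, Perm.mul_apply, Perm.inv_eq_iff_eq] at h0 h1
    have f0 : s j pt0 = pt0 := (hs j).2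
    have f0' : s j' pt0 = pt0 := (hs j').2
    rw [f0, f0'] at h0
    obtain rfl : i = i' := Fin.ext (i0 _ i.2 _ i'.2 (by
      rw [← hu' i, ← hu' i']
      exact congrArg Fin.val h0.symm))
    obtain rfl : j = j' := Fin.ext (i1 _ j.2 _ j'.2 (by
      rw [← hs' j, ← hs' j']
      exact congrArg Fin.val ((u i).injective h1).symm))
    rfl
  have h1 := Nat.card_le_card_of_injective f hf
  rw [Nat.card_prod, Nat.card_fin, Nat.card_fin] at h1
  have h2 := stabPair.card_mul_index
  rw [card_Grp, Subgroup.index] at h2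
  nlinarith

theorem stabPair_eq : Subgroup.closure ({gA, gB} : Set Grp) = stabPair := by
  refine Subgroup.eq_of_le_of_card_ge ?_ (card_sub.symm ▸ card_stabPair_le)
  rw [Subgroup.closure_le]
  have key : ∀ k ∈ [idA, idB], ∀ g : Grp, ctx.Rep g.1 (ctx.el k) → g ∈ stabPair := by
    intro k hk g hg
    have h := List.all_eq_true.mp sub_fix k hk
    simp only [Bool.and_eq_true] at h
    exact mem_stabPair.mpr ⟨Fin.ext ((hg pt0).trans (Nat.eq_of_beq_eq_true h.1)),
      Fin.ext ((hg pt1).trans (Nat.eq_of_beq_eq_true h.2))⟩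
  rintro g (rfl | rfl)
  exacts [key idA (by simp) _ gA_rep, key idB (by simp) _ gB_rep]

end

end Cfsg.Agent.H14.McLMult
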