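import Cfsg.Agent.H14.McLMult.SylData

/-! The checks of the certificate at 2 for the McLaughlin group. -/

set_option autoImplicit false
set_option maxRecDepth 100000

namespace Cfsg.Agent.H14.McLMult.Syl

open Cfsg.Agent.H13.SylMult

theorem pc2_ok : pc2.ok cert2 = true := by decide +kernel

theorem rows2_ok : cert2.rowsOk pc2 = true := by decide +kernel

theorem combos2_ok : cert2.combosOk pc2 = true := by decide +kernel

theorem perm2_ok : perm2.ok pc2 cert2 = true := by decide +kernel

end Cfsg.Agent.H14.McLMult.Syl
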